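import Cfsg.Agent.BTs.ParCard
import Cfsg.Agent.Tw4.Rows
import Cfsg.Agent.ChevU.Syl

/-!
Orders of parabolic subgroups of `F₄(q)`, `q` even (owner: helper12).
-/

set_option autoImplicit false
set_option maxRecDepth 100000

namespace Cfsg.Agent.BTs

open Cfsg.Lie Cfsg.Agent.Chev Cfsg.Agent.ChevGrp Cfsg.Agent.ChevGrp.DData Cfsg.Agent.ChevWeyl
  Cfsg.Agent.Tw3 Cfsg.Agent.Tw4 Cfsg.Agent.ChevGrp.RGrp

/-- numeric value of a word -/
def vw (L : List (Fin chevF4.rank)) (r : ℕ) : ℕ := rw4 (L.map Fin.val) r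

variable {K : Type*} [Field K]

theorem wd_eq_iff (L L' : List (Fin chevF4.rank)) (h : ∀ r < 48, vw L r = vw L' r) :
    dF4.rp.wsys.wd L = dF4.rp.wsys.wd L' := by
  ext r
  rw [wd_val, wd_val]
  exact h r r.2

theorem card_X_F4 [Finite K] (r : Fin chevF4.nroots) : Nat.card ((RF K).X r) = Nat.card K := by
  symm
  refine Nat.card_congr (Equiv.ofBijective (fun t : K => (⟨xF r t, (XF_eq r).2 ⟨t, rfl⟩⟩ : (RF K).X r)) ⟨?_, ?_⟩)
  · intro t u h
    exact (xF_eq_iff r.2 t u).1 (congrArg Subtype.val h)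
  · rintro ⟨g, hg⟩
    obtain ⟨t, ht⟩ := (XF_eq r).1 hg
    exact ⟨t, Subtype.ext ht⟩

theorem card_par_list [Finite K] (Ls : List (List (Fin chevF4.rank))) (J : Set (Fin chevF4.rank))
    (hJ : ∀ L ∈ Ls, ∀ i ∈ L, i ∈ J) (h1 : [] ∈ Ls)
    (hcl : ∀ i ∈ J, ∀ L ∈ Ls, ∃ L' ∈ Ls, ∀ r < 48, vw (i :: L) r = vw L' r)
    (hnd : Ls.Pairwise fun L L' => ∃ r < 48, vw L r ≠ vw L' r)
    (hred : ∀ L ∈ Ls, ∀ k (hk : k < L.length), 24 ≤ vw (L.take k) (chevF4.simple (L[k]))) :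
    Nat.card (par (RF K) J) = Nat.card (RF K).B * (Ls.map fun L => Nat.card K ^ L.length).sum := by
  classical
  have hfin : Finite ↥(chevF4.group K) := inferInstance
  set T := (Ls.map dF4.rp.wsys.wd).toFinset with hT
  have hmem : ∀ u, u ∈ T ↔ ∃ L ∈ Ls, dF4.rp.wsys.wd L = u := by
    intro u
    rw [hT, List.mem_toFinset, List.mem_map]
  have h2 := card_par (R := RF K) (J := J) T ((hmem _).2 ⟨[], h1, rfl⟩)
    (fun i hi u hu => by
      obtain ⟨L, hL, rfl⟩ := (hmem u).1 hu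
      obtain ⟨L', hL', h⟩ := hcl i hi L hL
      rw [← WSys.wd_cons, wd_eq_iff _ _ h]
      exact (hmem _).2 ⟨L', hL', rfl⟩)
    (fun u hu => by
      obtain ⟨L, hL, rfl⟩ := (hmem u).1 hu
      exact ⟨L, hJ L hL, rfl⟩)
  rw [h2]
  congr 1
  have hnd' : (Ls.map dF4.rp.wsys.wd).Nodup := by
    rw [List.Nodup, List.pairwise_map]
    refine hnd.imp ?_
    rintro L L' ⟨r, hr, h⟩ e
    apply h
    have h3 := congrArg (fun u : Equiv.Perm (Fin chevF4.nroots) => ((u ⟨r, hr⟩ : Fin _) : ℕ)) e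
    simp only [wd_val] at h3
    exact h3
  rw [hT, List.sum_toFinset _ hnd', List.map_map]
  congr 1
  refine List.map_congr_left fun L hL => ?_
  refine card_Um_wd (q := Nat.card K) (fun j => card_X_F4 _) L ?_
  intro k hk
  rw [posF4_iff, wd_val, pF_val]
  exact hred L hL k hk

def L03 : List (List (Fin chevF4.rank)) := [[], [i0], [i3], [i0, i3]]

def L12 : List (List (Fin chevF4.rank)) := [[], [i1], [i2], [i1, i2], [i2, i1], [i1, i2, i1], [i2, i1, i2],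
  [i1, i2, i1, i2]]

theorem card_par03 [Finite K] : Nat.card (par (RF K) {i0, i3}) = Nat.card (RF K).B * (1 + Nat.card K) ^ 2 := by
  rw [card_par_list L03 {i0, i3} ?_ ?_ ?_ ?_ ?_]
  · congr 1
    simp [L03]; ring
  · have : ∀ L ∈ L03, ∀ i ∈ L, i = i0 ∨ i = i3 := by decide +kernel
    exact this
  · simp [L03]
  · have : ∀ i : Fin chevF4.rank, (i = i0 ∨ i = i3) → ∀ L ∈ L03, ∃ L' ∈ L03, ∀ r < 48, vw (i :: L) r = vw L' r := by
      decide +kernel
    exact this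
  · decide +kernel
  · decide +kernel

theorem card_par12 [Finite K] : Nat.card (par (RF K) {i1, i2}) =
    Nat.card (RF K).B * ((1 + Nat.card K) ^ 2 * (1 + Nat.card K ^ 2)) := by
  rw [card_par_list L12 {i1, i2} ?_ ?_ ?_ ?_ ?_]
  · congr 1
    simp [L12]; ring
  · have : ∀ L ∈ L12, ∀ i ∈ L, i = i1 ∨ i = i2 := by decide +kernel
    exact this
  · simp [L12]
  · have : ∀ i : Fin chevF4.rank, (i = i1 ∨ i = i2) → ∀ L ∈ L12, ∃ L' ∈ L12, ∀ r < 48, vw (i :: L) r = vw L' r := by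
      decide +kernel
    exact this
  · decide +kernel
  · decide +kernel

end Cfsg.Agent.BTs
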