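import Mathlib

/-!
Stable parabolic subgroups from a Borel–Tits property (owner: helper12).
-/

set_option autoImplicit false

namespace Cfsg.Agent.BTs

open Subgroup

variable {X : Type*} [Group X]

theorem map_normalizer_eq (σ : X ≃* X) {V : Subgroup X} (hV : V.map σ.toMonoidHom = V) {x : X} :
    σ x ∈ normalizer (V : Set X) ↔ x ∈ normalizer (V : Set X) := by
  have h1 : ∀ y, σ y ∈ V ↔ y ∈ V := by
    intro y
    conv_lhs => rw [← hV]
    rw [Subgroup.mem_map]
    constructor
    · rintro ⟨z, hz, hzy⟩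
      have : z = y := σ.injective hzy
      rwa [← this]
    · intro hy
      exact ⟨y, hy, rfl⟩
  rw [mem_normalizer_iff, mem_normalizer_iff]
  constructor
  · intro h y
    rw [← h1 y, h (σ y), ← map_inv, ← map_mul, ← map_mul, h1]
  · intro h y
    obtain ⟨z, rfl⟩ := σ.surjective y
    rw [h1 z, h z, ← h1 (x * z * x⁻¹), map_mul, map_mul, map_inv]

theorem map_le_normalizer (σ : X ≃* X) {V N : Subgroup X} (hN : ∀ x, σ x ∈ N ↔ x ∈ N)
    (h : N ≤ normalizer (V : Set X)) : N ≤ normalizer ((V.map σ.toMonoidHom : Subgroup X) : Set X) := by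
  intro n hn
  obtain ⟨m, rfl⟩ := σ.surjective n
  have hm := h ((hN m).1 hn)
  rw [mem_normalizer_iff] at hm ⊢
  intro y
  obtain ⟨z, rfl⟩ := σ.surjective y
  have h1 : ∀ y, σ y ∈ (V.map σ.toMonoidHom : Subgroup X) ↔ y ∈ V := by
    intro y
    rw [Subgroup.mem_map]
    constructor
    · rintro ⟨z, hz, hzy⟩
      have : z = y := σ.injective hzy
      rwa [← this]
    · intro hy
      exact ⟨y, hy, rfl⟩
  rw [h1, ← map_inv, ← map_mul, ← map_mul, h1]
  exact hm z

theorem exists_stable [Finite X] {p : ℕ} [hp : Fact p.Prime] (σ : X ≃* X) (Par : Subgroup X → Subgroup X → Prop)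
    (hPar : ∀ P U, Par P U → IsPGroup p U ∧ P ≤ normalizer (U : Set X))
    (BT : ∀ V : Subgroup X, IsPGroup p V → V ≠ ⊥ → ∃ P U, Par P U ∧ normalizer (V : Set X) ≤ P ∧ V ≤ U)
    {a : X} (ha : orderOf a = p) (hσ : σ a = a) :
    ∃ P U, Par P U ∧ P.map σ.toMonoidHom = P ∧ ∀ c, c * a = a * c → c ∈ P := by
  classical
  let F : Set (Subgroup X) := {V | IsPGroup p V ∧ V ≠ ⊥ ∧ V.map σ.toMonoidHom = V ∧
    ∀ c, c * a = a * c → c ∈ normalizer (V : Set X)}
  have hF : F.Nonempty := by
    refine ⟨zpowers a, IsPGroup.of_card (n := 1) (by rw [Nat.card_zpowers, ha, pow_one]), ?_, ?_, ?_⟩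
    · intro h
      rw [zpowers_eq_bot] at h
      rw [h, orderOf_one] at ha
      exact hp.out.one_lt.ne ha
    · rw [MonoidHom.map_zpowers]
      congr 1
    · intro c hc
      apply Subgroup.centralizer_le_normalizer
      rw [mem_centralizer_iff]
      intro x hx
      obtain ⟨k, rfl⟩ := mem_zpowers_iff.1 hx
      exact ((show Commute c a from hc).zpow_right k).eq.symm
  obtain ⟨V, ⟨hVp, hVne, hVσ, hVC⟩, hmax⟩ := Set.exists_max_image F (fun V => Nat.card V) (Set.toFinite _) hF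
  set N := normalizer (V : Set X) with hN
  have hNσ : ∀ x, σ x ∈ N ↔ x ∈ N := fun x => map_normalizer_eq σ hVσ
  let Q : Set (Subgroup X) := {W | W ≤ N ∧ N ≤ normalizer (W : Set X) ∧ IsPGroup p W}
  have hVQ : V ∈ Q := ⟨le_normalizer, le_refl _, hVp⟩
  obtain ⟨W, ⟨hW1, hW2, hW3⟩, hWmax⟩ := Set.exists_max_image Q (fun V => Nat.card V) (Set.toFinite _) ⟨V, hVQ⟩
  have hle : ∀ W' ∈ Q, W' ≤ W := by
    rintro W' ⟨h1, h2, h3⟩
    have h4 : W ⊔ W' ∈ Q := by
      refine ⟨sup_le hW1 h1, ?_, IsPGroup.to_sup_of_normal_right' hW3 h3 (hW1.trans h2)⟩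
      exact (le_inf hW2 h2).trans (normalizer_inf_normalizer_le_normalizer_sup W W')
    have h5 := hWmax _ h4
    have h6 : W = W ⊔ W' := Subgroup.eq_of_le_of_card_ge le_sup_left h5
    rw [h6]
    exact le_sup_right
  have hWσ : W.map σ.toMonoidHom = W := by
    have h1 : W.map σ.toMonoidHom ∈ Q := by
      refine ⟨?_, map_le_normalizer σ hNσ hW2, hW3.map _⟩
      rintro _ ⟨w, hw, rfl⟩
      exact (hNσ w).2 (hW1 hw)
    apply Subgroup.eq_of_le_of_card_ge (hle _ h1)
    rw [Subgroup.card_map_of_injective σ.injective]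
  have hWF : W ∈ F := by
    refine ⟨hW3, ?_, hWσ, fun c hc => hW2 (hVC c hc)⟩
    intro h
    have := hle V hVQ
    rw [h, le_bot_iff] at this
    exact hVne this
  have hVW : V = W := Subgroup.eq_of_le_of_card_ge (hle V hVQ) (hmax W hWF)
  obtain ⟨P, U, hPU, hNP, hVU⟩ := BT V hVp hVne
  obtain ⟨hUp, hPN⟩ := hPar P U hPU
  have hUN : U ⊓ N ≤ V := by
    rw [hVW]
    apply hle
    refine ⟨inf_le_right, ?_, hUp.to_le inf_le_left⟩
    intro n hn
    have h1 := mem_normalizer_iff.1 (hPN (hNP hn))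
    rw [mem_normalizer_iff]
    intro y
    rw [mem_inf, mem_inf]
    refine and_congr (h1 y) ?_
    constructor
    · intro hy
      exact mul_mem (mul_mem hn hy) (inv_mem hn)
    · intro hy
      have h2 := mul_mem (mul_mem (inv_mem hn) hy) hn
      have h3 : n⁻¹ * (n * y * n⁻¹) * n = y := by group
      rwa [h3] at h2
  have hUV : U = V := by
    apply le_antisymm _ hVU
    by_contra hcon
    have hnil : Group.IsNilpotent U := hUp.isNilpotent
    have h1 : V.subgroupOf U < ⊤ := by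
      rw [lt_top_iff_ne_top]
      intro h
      rw [subgroupOf_eq_top] at h
      exact hcon h
    have h2 := Group.normalizerCondition_of_isNilpotent _ h1
    obtain ⟨x, hx1, hx2⟩ := SetLike.exists_of_lt h2
    apply hx2
    rw [mem_subgroupOf]
    apply hUN
    refine ⟨x.2, ?_⟩
    show (x : X) ∈ normalizer (V : Set X)
    rw [mem_normalizer_iff]
    have hx1' := mem_normalizer_iff.1 hx1
    intro y
    constructor
    · intro hy
      exact (hx1' ⟨y, hVU hy⟩).1 hy
    · intro hy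
      have h3 : y ∈ U := by
        have h4 := mul_mem (mul_mem (inv_mem x.2) (hVU hy)) x.2
        have h5 : (x : X)⁻¹ * ((x : X) * y * (x : X)⁻¹) * (x : X) = y := by group
        rwa [h5] at h4
      exact (hx1' ⟨y, h3⟩).2 hy
  have hPeq : P = N := by
    apply le_antisymm
    · rw [hN, ← hUV]; exact hPN
    · exact hNP
  refine ⟨P, U, hPU, ?_, ?_⟩
  · rw [hPeq]
    ext x
    rw [Subgroup.mem_map]
    constructor
    · rintro ⟨y, hy, rfl⟩
      exact (hNσ y).2 hy
    · intro hx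
      obtain ⟨y, rfl⟩ := σ.surjective x
      exact ⟨y, (hNσ y).1 hx, rfl⟩
  · intro c hc
    rw [hPeq]
    exact hVC c hc

end Cfsg.Agent.BTs
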