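import Cfsg.Agent.BTs.F4Card
import Cfsg.Agent.BTs.Stable
import Cfsg.Agent.ChevU.Over
import Cfsg.Agent.ChevU.CentU
import Cfsg.Agent.ChevU.All

/-!
Centralisers of involutions of the large Ree groups lie in stable parabolic subgroups of `F₄(q)` (owner: helper12).
-/

set_option autoImplicit false
set_option maxRecDepth 100000

namespace Cfsg.Agent.BTs

open Cfsg.Lie Cfsg.Agent.Chev Cfsg.Agent.ChevGrp Cfsg.Agent.ChevGrp.DData Cfsg.Agent.ChevWeyl
  Cfsg.Agent.Tw3 Cfsg.Agent.Tw4 Cfsg.Agent.ChevGrp.RGrp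

section

variable {D : ChevalleyDatum} {F : Type*} [Field F] (R : Cfsg.Agent.ChevU.RootFacts D) (G : Chev.Good D) (E : ChevGrp.DData D)

include E G in
/-- reflections in a standard parabolic subgroup -/
theorem nU_mem_parabolic {J : Set ℕ} (hJ : ∀ j ∈ J, j < D.rank) {i : ℕ} (hi : i < D.rank)
    (h : Cfsg.Agent.ChevU.nU R (Cfsg.Agent.ChevU.elemOfGood G F) (D.simple i) 1 ∈ D.parabolicSubgroup F J) : i ∈ J := by
  classical
  let l : Fin D.rank → ℝ := fun j => if (j : ℕ) ∈ J then 0 else 1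
  have hl : Cfsg.Agent.ChevU.Dom l := fun j => by
    show (0 : ℝ) ≤ if (j : ℕ) ∈ J then 0 else 1
    split_ifs <;> norm_num
  have hz : Cfsg.Agent.ChevU.zeros l = J := by
    ext j
    constructor
    · rintro ⟨hj, h⟩
      unfold Cfsg.Agent.ChevU.extL at h
      rw [dif_pos hj] at h
      by_contra hcon
      have h2 : (if j ∈ J then (0 : ℝ) else 1) = 0 := h
      rw [if_neg hcon] at h2
      norm_num at h2
    · intro hj
      refine ⟨hJ j hj, ?_⟩
      unfold Cfsg.Agent.ChevU.extL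
      rw [dif_pos (hJ j hj)]
      show (if j ∈ J then (0 : ℝ) else 1) = 0
      rw [if_pos hj]
  have h1 := Cfsg.Agent.ChevU.stab_dom (F := F) R G E hl
  rw [hz] at h1
  rw [← h1] at h
  have h2 := (Cfsg.Agent.ChevU.nU_mem_PW_iff R G hi l).1 h.2
  by_contra hcon
  have h3 : (if i ∈ J then (0 : ℝ) else 1) = 0 := h2
  rw [if_neg hcon] at h3
  norm_num at h3

end

variable {K : Type*} [Field K]

/-- pairs of a parabolic subgroup and its radical -/
def ParF (P U : Subgroup ↥(chevF4.group K)) : Prop := ∃ g : ↥(chevF4.group K), ∃ J : Set ℕ, (∀ j ∈ J, j < chevF4.rank) ∧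
  (∃ i, i < chevF4.rank ∧ i ∉ J) ∧
  P = ((chevF4.parabolicSubgroup K J).subgroupOf (chevF4.group K)).map (MulAut.conj g).toMonoidHom ∧
  U = ((chevF4.unipotentRadical K J).subgroupOf (chevF4.group K)).map (MulAut.conj g).toMonoidHom

theorem memF4 : chevF4 ∈ [chevG2, chevB2, chevD4, chevF4, chevE6, chevE7, chevE8] := by simp

theorem conj_map_subgroupOf {X : Type*} [Group X] (L Q : Subgroup X) (g : L) (x : L) :
    x ∈ (Q.subgroupOf L).map (MulAut.conj g).toMonoidHom ↔ (x : X) ∈ Q.map (MulAut.conj (g : X)).toMonoidHom := by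
  constructor
  · rintro ⟨y, hy, rfl⟩
    exact ⟨y, hy, rfl⟩
  · rintro ⟨y, hy, e⟩
    have e' : (g : X) * y * (g : X)⁻¹ = x := e
    have hyL : y ∈ L := by
      have h1 : y = (g : X)⁻¹ * x * g := by rw [← e']; group
      rw [h1]
      exact mul_mem (mul_mem (inv_mem g.2) x.2) g.2
    exact ⟨⟨y, hyL⟩, hy, Subtype.ext e'⟩

theorem bt_F4 [Fintype K] [CharP K 2] (V : Subgroup ↥(chevF4.group K)) (hV : IsPGroup 2 V) (hne : V ≠ ⊥) :
    ∃ P U, ParF (K := K) P U ∧ Subgroup.normalizer (V : Set ↥(chevF4.group K)) ≤ P ∧ V ≤ U := by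
  have hfact : Fact (Nat.Prime 2) := ⟨Nat.prime_two⟩
  have h1 : V.map (chevF4.group K).subtype ≤ chevF4.group K := by rintro _ ⟨x, _, rfl⟩; exact x.2
  have h2 : V.map (chevF4.group K).subtype ≠ ⊥ := by
    intro h
    apply hne
    rw [eq_bot_iff]
    intro x hx
    have : (x : GL chevF4.Idx K) ∈ V.map (chevF4.group K).subtype := ⟨x, hx, rfl⟩
    rw [h, Subgroup.mem_bot] at this
    rw [Subgroup.mem_bot]
    exact Subtype.ext this
  obtain ⟨g, hg, J, hJ, hJp, h3, h4⟩ := Cfsg.Agent.ChevU.borel_tits (F := K) (Cfsg.Agent.ChevU.rootFacts memF4)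
    (Cfsg.Agent.Chev.good_of_mem memF4) dF4 2 h1 (hV.map _) h2
  refine ⟨_, _, ⟨⟨g, hg⟩, J, hJ, hJp, rfl, rfl⟩, ?_, ?_⟩
  · intro x hx
    rw [conj_map_subgroupOf]
    apply h3
    refine ⟨?_, x.2⟩
    show (x : GL chevF4.Idx K) ∈ Subgroup.normalizer (V.map (chevF4.group K).subtype : Set (GL chevF4.Idx K))
    rw [Subgroup.mem_normalizer_iff] at hx ⊢
    intro y
    constructor
    · rintro ⟨v, hv, rfl⟩
      exact ⟨x * v * x⁻¹, (hx v).1 hv, rfl⟩
    · rintro ⟨v, hv, e⟩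
      have e' : (v : GL chevF4.Idx K) = x * y * (x : GL chevF4.Idx K)⁻¹ := e
      refine ⟨x⁻¹ * v * x, ?_, ?_⟩
      · show x⁻¹ * v * x ∈ V
        rw [hx]
        have : x * (x⁻¹ * v * x) * x⁻¹ = v := by group
        rw [this]; exact hv
      · show (x : GL chevF4.Idx K)⁻¹ * v * x = y
        rw [e']; group
  · intro x hx
    rw [conj_map_subgroupOf]
    exact h4 ⟨x, hx, rfl⟩

theorem hPar_F4 [Fintype K] [CharP K 2] (P U : Subgroup ↥(chevF4.group K)) (h : ParF (K := K) P U) :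
    IsPGroup 2 U ∧ P ≤ Subgroup.normalizer (U : Set ↥(chevF4.group K)) := by
  have hfact : Fact (Nat.Prime 2) := ⟨Nat.prime_two⟩
  obtain ⟨g, J, hJ, hJp, rfl, rfl⟩ := h
  constructor
  · apply IsPGroup.map
    have h1 : IsPGroup 2 ↥(chevF4.unipotentRadical K J) :=
      (Cfsg.Agent.ChevU.posUnipotent_isPGroup (Cfsg.Agent.ChevU.rootFacts memF4) (Cfsg.Agent.Chev.good_of_mem memF4) 2).to_le
        (Cfsg.Agent.ChevU.radical_le_pos J)
    intro x
    obtain ⟨k, hk⟩ := h1 ⟨((x : ↥(chevF4.group K)) : GL chevF4.Idx K), x.2⟩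
    refine ⟨k, ?_⟩
    have h2 : ((x : ↥(chevF4.group K)) : GL chevF4.Idx K) ^ 2 ^ k = 1 := congrArg Subtype.val hk
    apply Subtype.ext
    apply Subtype.ext
    rw [Subgroup.coe_pow, Subgroup.coe_pow, h2]
    rfl
  · rintro _ ⟨p, hp, rfl⟩
    have hN := Cfsg.Agent.ChevU.parabolic_le_normalizer (F := K) (Cfsg.Agent.ChevU.rootFacts memF4)
      (Cfsg.Agent.Chev.good_of_mem memF4) J (show (p : GL chevF4.Idx K) ∈ chevF4.parabolicSubgroup K J from hp)
    rw [Subgroup.mem_normalizer_iff] at hN ⊢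
    intro y
    constructor
    · rintro ⟨u, hu, rfl⟩
      refine ⟨p * u * p⁻¹, (hN u).1 hu, ?_⟩
      show g * (p * u * p⁻¹) * g⁻¹ = g * p * g⁻¹ * (g * u * g⁻¹) * (g * p * g⁻¹)⁻¹
      group
    · rintro ⟨u, hu, e⟩
      have e' : g * u * g⁻¹ = g * p * g⁻¹ * y * (g * p * g⁻¹)⁻¹ := e
      refine ⟨p⁻¹ * u * p, ?_, ?_⟩
      · show ((p⁻¹ * u * p : ↥(chevF4.group K)) : GL chevF4.Idx K) ∈ chevF4.unipotentRadical K J
        have h5 := (hN ((p⁻¹ * u * p : ↥(chevF4.group K)) : GL chevF4.Idx K)).2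
        apply h5
        have : (p : GL chevF4.Idx K) * ((p⁻¹ * u * p : ↥(chevF4.group K)) : GL chevF4.Idx K) * (p : GL chevF4.Idx K)⁻¹ = u := by
          simp only [Subgroup.coe_mul, Subgroup.coe_inv]; group
        rw [this]; exact hu
      · show g * (p⁻¹ * u * p) * g⁻¹ = y
        have : g * (p⁻¹ * u * p) * g⁻¹ = (g * p * g⁻¹)⁻¹ * (g * u * g⁻¹) * (g * p * g⁻¹) := by group
        rw [this, e']; group

theorem σ_B (Z : Sg K) {g : ↥(chevF4.group K)} (hg : g ∈ (RF K).B) : Z.σ g ∈ (RF K).B := by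
  have h1 : (RF K).B ≤ (RF K).B.comap Z.σ.toMonoidHom := by
    refine sup_le ?_ ?_
    · rw [RGrp.U, gen_le]
      intro r hr x hx
      have h2 : Z.σ x ∈ (RF K).X (ρF r) := σ_X Z hx
      refine (RF K).U_le_B (mem_gen ?_ h2)
      rw [posF4_iff] at hr ⊢
      rw [ρF_val]
      have : ∀ r < 48, 24 ≤ r → 24 ≤ bF4 r := by decide +kernel
      exact this r r.2 hr
    · intro h hh
      exact (RF K).H_le_B (σ_H Z hh)
  exact h1 hg

theorem nn_iff (s : ↥(chevF4.group K)) (i : Fin chevF4.rank) :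
    s = (RF K).nn i ↔ ((s : GL chevF4.Idx K) : Matrix chevF4.Idx chevF4.Idx K) = chevF4.nMat K (chevF4.simple i) 1 := by
  have h1 : (RF K).nn i = nG goodF4.toGood2 (chevF4.simple i) 1 := chevG_nn dF4 goodF4 i
  rw [h1]
  constructor
  · rintro rfl
    exact nG_coe goodF4.toGood2 _ _
  · intro h
    apply Subtype.ext
    apply Units.ext
    rw [h, nG_coe]

theorem rank_cases (i : Fin chevF4.rank) (hi : i ≠ i0) (hi1 : i ≠ i1) (hi2 : i ≠ i2) : i = i3 := by
  rcases i_cases i with h | h | h | h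
  · exact absurd h hi
  · exact absurd h hi1
  · exact absurd h hi2
  · exact h

theorem π_vals : πF i0 = i3 ∧ πF i1 = i2 ∧ πF i2 = i1 ∧ πF i3 = i0 := by decide +kernel

/-- stable parabolic subgroups have order dividing those of the two standard ones -/
theorem dvd_of_stable [Fintype K] [CharP K 2] (Z : Sg K) {P U : Subgroup ↥(chevF4.group K)} (hPU : ParF (K := K) P U)
    (hσ : P.map Z.σ.toMonoidHom = P) :
    Nat.card P ∣ Nat.card (par (RF K) {i0, i3}) ∨ Nat.card P ∣ Nat.card (par (RF K) {i1, i2}) := by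
  classical
  obtain ⟨g, J, hJ, ⟨j, hj, hjJ⟩, hP, -⟩ := hPU
  set M := (chevF4.parabolicSubgroup K J).subgroupOf (chevF4.group K) with hM
  obtain ⟨PP, hB, hN, hS⟩ := ChevGrp.bn_pair (F := K) dF4 goodF4
  have hBR : PP.B = (RF K).B := by rw [hB]; exact (chevG_B dF4 goodF4).symm
  have hBM : PP.B ≤ M := by
    rw [hB]
    exact Subgroup.comap_mono le_sup_left
  have hcM : Nat.card P = Nat.card M := by
    rw [hP]
    exact Subgroup.card_map_of_injective (MulAut.conj g).injective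
  have hPmem : ∀ x, x ∈ P ↔ g⁻¹ * x * g ∈ M := by
    intro x
    rw [hP]
    constructor
    · rintro ⟨y, hy, rfl⟩
      have : g⁻¹ * (MulAut.conj g).toMonoidHom y * g = y := by
        show g⁻¹ * (g * y * g⁻¹) * g = y
        group
      rw [this]; exact hy
    · intro h
      exact ⟨_, h, by show g * (g⁻¹ * x * g) * g⁻¹ = x; group⟩
  have hσP : ∀ x, Z.σ x ∈ P ↔ x ∈ P := by
    intro x
    conv_lhs => rw [← hσ]
    rw [Subgroup.mem_map]
    constructor
    · rintro ⟨y, hy, e⟩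
      have : y = x := Z.σ.injective e
      rwa [← this]
    · intro hx
      exact ⟨x, hx, rfl⟩
  set M' := M.map Z.σ.toMonoidHom with hM'
  have hM'mem : ∀ x, Z.σ x ∈ M' ↔ x ∈ M := by
    intro x
    rw [hM', Subgroup.mem_map]
    constructor
    · rintro ⟨y, hy, e⟩
      have : y = x := Z.σ.injective e
      rwa [← this]
    · intro hx
      exact ⟨x, hx, rfl⟩
  have hBM' : PP.B ≤ M' := by
    intro b hb
    have h1 : Nat.card ((RF K).B.map Z.σ.toMonoidHom : Subgroup ↥(chevF4.group K)) = Nat.card (RF K).B :=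
      Subgroup.card_map_of_injective Z.σ.injective
    have hfin : Finite ↥(chevF4.group K) := inferInstance
    have h2 : (RF K).B.map Z.σ.toMonoidHom ≤ (RF K).B := by
      rintro _ ⟨x, hx, rfl⟩
      exact σ_B Z hx
    have h3 : (RF K).B.map Z.σ.toMonoidHom = (RF K).B := Subgroup.eq_of_le_of_card_ge h2 h1.ge
    rw [hBR, ← h3] at hb
    obtain ⟨c, hc, rfl⟩ := hb
    exact ⟨c, hBM (hBR ▸ hc), rfl⟩
  -- the conjugating element
  set h := (Z.σ g)⁻¹ * g with hh
  have hconj : ∀ x, x ∈ M ↔ h * x * h⁻¹ ∈ M' := by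
    intro x
    obtain ⟨y, hy⟩ := Z.σ.surjective (h * x * h⁻¹)
    have e1 : g * x * g⁻¹ = Z.σ (g * y * g⁻¹) := by
      rw [map_mul, map_mul, map_inv, hy, hh]; group
    have e2 : x ∈ M ↔ g * x * g⁻¹ ∈ P := by
      rw [hPmem]
      have : g⁻¹ * (g * x * g⁻¹) * g = x := by group
      rw [this]
    rw [e2, e1, hσP, hPmem, ← hy, hM'mem]
    have : g⁻¹ * (g * y * g⁻¹) * g = y := by group
    rw [this]
  have hhM' : h ∈ M' := BNP.mem_of_conj_mem PP hBM' h fun b hb => (hconj b).1 (hBM hb)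
  have hMM : M = M' := by
    ext x
    rw [hconj]
    constructor
    · intro hx
      have := mul_mem (mul_mem (inv_mem hhM') hx) hhM'
      have e : h⁻¹ * (h * x * h⁻¹) * h = x := by group
      rwa [e] at this
    · intro hx
      exact mul_mem (mul_mem hhM' hx) (inv_mem hhM')
  have hnn : ∀ i, (RF K).nn i ∈ M → (RF K).nn (πF i) ∈ M := by
    intro i hi
    rw [← σ_nF Z i, hMM, hM'mem]
    exact hi
  have hall : ¬ ∀ i, (RF K).nn i ∈ M := by
    intro hcon
    apply hjJ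
    have h1 := hcon ⟨j, hj⟩
    refine nU_mem_parabolic (F := K) (Cfsg.Agent.ChevU.rootFacts memF4) (Cfsg.Agent.Chev.good_of_mem memF4) dF4 hJ hj ?_
    have h2 : (((RF K).nn ⟨j, hj⟩ : ↥(chevF4.group K)) : GL chevF4.Idx K) =
        Cfsg.Agent.ChevU.nU (Cfsg.Agent.ChevU.rootFacts memF4) (Cfsg.Agent.ChevU.elemOfGood
          (Cfsg.Agent.Chev.good_of_mem memF4) K) (chevF4.simple j) 1 := by
      rw [Cfsg.Agent.ChevU.eq_nU_iff]
      exact (nn_iff _ ⟨j, hj⟩).1 rfl
    rw [← h2]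
    exact h1
  have hle : ∀ J' : Set (Fin chevF4.rank), (∀ i, (RF K).nn i ∈ M → i ∈ J') → Nat.card P ∣ Nat.card (par (RF K) J') := by
    intro J' hJ'
    rw [hcM]
    apply Subgroup.card_dvd_of_le
    have hB' : PP.B ≤ par (RF K) J' := by rw [hBR]; exact B_le_par J'
    rw [BNP.eq_par PP hBM, BNP.par_le_iff PP hB']
    rintro ⟨s, hs⟩ hsM
    rw [hS] at hs
    obtain ⟨i, hi, hsi⟩ := hs
    have h1 : s = (RF K).nn ⟨i, hi⟩ := (nn_iff s ⟨i, hi⟩).2 hsi
    show s ∈ par (RF K) J'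
    rw [h1]
    apply nn_mem_par
    apply hJ'
    rw [← h1]
    exact hsM
  obtain ⟨p0, p1, p2, p3⟩ := π_vals
  have n0 := hnn i0
  have n1 := hnn i1
  have n2 := hnn i2
  have n3 := hnn i3
  rw [p0] at n0
  rw [p1] at n1
  rw [p2] at n2
  rw [p3] at n3
  by_cases h0 : (RF K).nn i0 ∈ M
  · left
    apply hle
    intro i hi
    rcases i_cases i with rfl | rfl | rfl | rfl
    · exact Or.inl rfl
    · exfalso
      apply hall
      intro k
      rcases i_cases k with rfl | rfl | rfl | rfl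
      · exact h0
      · exact hi
      · exact n1 hi
      · exact n0 h0
    · exfalso
      apply hall
      intro k
      rcases i_cases k with rfl | rfl | rfl | rfl
      · exact h0
      · exact n2 hi
      · exact hi
      · exact n0 h0
    · exact Or.inr rfl
  · right
    apply hle
    intro i hi
    rcases i_cases i with rfl | rfl | rfl | rfl
    · exact absurd hi h0
    · exact Or.inl rfl
    · exact Or.inr rfl
    · exact absurd (n3 hi) h0

end Cfsg.Agent.BTs
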