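import Cfsg.Agent.ChevGrp.Order

/-!
Orders of parabolic subgroups of groups with a system of root subgroups (owner: helper12).
-/

set_option autoImplicit false

namespace Cfsg.Agent.BTs

open Cfsg.Agent.ChevWeyl Cfsg.Agent.ChevGrp Cfsg.Agent.ChevGrp.RGrp

variable {l n : ℕ} {S : WSys l n} {G : Type*} [Group G]

/-- parabolic subgroup -/
def par (R : RGrp S G) (J : Set (Fin l)) : Subgroup G := R.B ⊔ Subgroup.closure (R.nn '' J)

variable {R : RGrp S G}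

theorem B_le_par (J : Set (Fin l)) : R.B ≤ par R J := le_sup_left

theorem nn_mem_par {J : Set (Fin l)} {i : Fin l} (hi : i ∈ J) : R.nn i ∈ par R J :=
  (le_sup_right : _ ≤ par R J) (Subgroup.subset_closure ⟨i, hi, rfl⟩)

theorem nd_mem_par {J : Set (Fin l)} (L : List (Fin l)) (hL : ∀ i ∈ L, i ∈ J) : R.nd L ∈ par R J := by
  unfold RGrp.nd
  apply Subgroup.list_prod_mem
  intro x hx
  rw [List.mem_map] at hx
  obtain ⟨i, hi, rfl⟩ := hx
  exact nn_mem_par (hL i hi)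

theorem mem_cells {J : Set (Fin l)} {T : Set (Equiv.Perm (Fin n))} (h1 : 1 ∈ T)
    (hT : ∀ i ∈ J, ∀ u ∈ T, S.w i * u ∈ T) {g : G} (hg : g ∈ par R J) :
    ∃ b ∈ R.B, ∃ m ∈ R.N, ∃ u ∈ T, R.Act m u ∧ ∃ b' ∈ R.B, g = b * m * b' := by
  have hcl : g ∈ Subgroup.closure ((R.B : Set G) ∪ R.nn '' J) := by
    rw [Subgroup.closure_union, Subgroup.closure_eq]
    exact hg
  have key : ∀ x ∈ (R.B : Set G) ∪ R.nn '' J, ∀ y, (∃ b ∈ R.B, ∃ m ∈ R.N, ∃ u ∈ T, R.Act m u ∧ ∃ b' ∈ R.B, y = b * m * b') →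
      (∃ b ∈ R.B, ∃ m ∈ R.N, ∃ u ∈ T, R.Act m u ∧ ∃ b' ∈ R.B, x * y = b * m * b') := by
    rintro x (hx | ⟨i, hi, rfl⟩) y ⟨b, hb, m, hm, u, hu, hmu, b', hb', rfl⟩
    · exact ⟨x * b, mul_mem hx hb, m, hm, u, hu, hmu, b', hb', by group⟩
    · rcases bn i hm hb with ⟨b₁, h1, b₂, h2, e⟩ | ⟨b₁, h1, b₂, h2, e⟩
      · refine ⟨b₁, h1, R.nn i * m, mul_mem (R.nn_mem_N i) hm, S.w i * u, hT i hi u hu, (act_nn i).mul hmu,
          b₂ * b', mul_mem h2 hb', ?_⟩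
        have : R.nn i * (b * m * b') = (R.nn i * b * m) * b' := by group
        rw [this, e]; group
      · refine ⟨b₁, h1, m, hm, u, hu, hmu, b₂ * b', mul_mem h2 hb', ?_⟩
        have : R.nn i * (b * m * b') = (R.nn i * b * m) * b' := by group
        rw [this, e]; group
  have keyi : ∀ x ∈ (R.B : Set G) ∪ R.nn '' J, ∀ y, (∃ b ∈ R.B, ∃ m ∈ R.N, ∃ u ∈ T, R.Act m u ∧ ∃ b' ∈ R.B, y = b * m * b') →
      (∃ b ∈ R.B, ∃ m ∈ R.N, ∃ u ∈ T, R.Act m u ∧ ∃ b' ∈ R.B, x⁻¹ * y = b * m * b') := by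
    rintro x (hx | ⟨i, hi, rfl⟩) y hy
    · exact key x⁻¹ (Or.inl (inv_mem hx)) y hy
    · obtain ⟨b, hb, h⟩ := key _ (Or.inr ⟨i, hi, rfl⟩) y hy
      obtain ⟨m, hm, u, hu, hmu, b', hb', e⟩ := h
      refine ⟨(R.nn i * R.nn i)⁻¹ * b, mul_mem (R.H_le_B (inv_mem (R.nn_sq i))) hb, m, hm, u, hu, hmu, b', hb', ?_⟩
      have : (R.nn i)⁻¹ * y = (R.nn i * R.nn i)⁻¹ * (R.nn i * y) := by group
      rw [this, e]; group
  clear hg
  induction hcl using Subgroup.closure_induction_left with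
  | one => exact ⟨1, one_mem _, 1, one_mem _, 1, h1, act_one, 1, one_mem _, by simp⟩
  | mul_left x hx y hy ih => exact key x hx y ih
  | inv_mul_cancel x hx y hy ih => exact keyi x hx y ih

theorem card_par [Finite G] {J : Set (Fin l)} (T : Finset (Equiv.Perm (Fin n))) (h1 : 1 ∈ T)
    (hT : ∀ i ∈ J, ∀ u ∈ T, S.w i * u ∈ T) (hw : ∀ u ∈ T, ∃ L : List (Fin l), (∀ i ∈ L, i ∈ J) ∧ S.wd L = u) :
    Nat.card (par R J) = Nat.card R.B * ∑ u ∈ T, Nat.card (R.Um u) := by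
  classical
  have hrep : ∀ u : T, ∃ g ∈ R.N, R.Act g (u : Equiv.Perm (Fin n)) ∧ g ∈ par R J := by
    intro u
    obtain ⟨L, hL, hu⟩ := hw u u.2
    exact ⟨R.nd L, nd_mem_N L, hu ▸ act_nd L, nd_mem_par L hL⟩
  choose rep hrepN hrep hrepM using hrep
  have hUM : ∀ u : Equiv.Perm (Fin n), R.Um u ≤ par R J := fun u =>
    (Um_le_U u).trans (R.U_le_B.trans (B_le_par J))
  rw [← Finset.sum_coe_sort, ← Nat.card_sigma, ← Nat.card_prod]
  refine (Nat.card_congr (Equiv.ofBijective (fun p : R.B × (Σ u : T, R.Um (u : Equiv.Perm (Fin n))) =>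
    (⟨(p.1 : G) * rep p.2.1 * p.2.2, mul_mem (mul_mem (B_le_par J p.1.2) (hrepM _))
      (hUM _ p.2.2.2)⟩ : par R J)) ⟨?_, ?_⟩)).symm
  · rintro ⟨⟨b, hb⟩, ⟨u, ⟨x, hx⟩⟩⟩ ⟨⟨b', hb'⟩, ⟨u', ⟨x', hx'⟩⟩⟩ e
    simp only [Subtype.mk.injEq] at e
    have huu : u = u' := by
      apply Subtype.ext
      have hxx : x * x'⁻¹ ∈ R.B := mul_mem (R.U_le_B (Um_le_U _ hx)) (inv_mem (R.U_le_B (Um_le_U _ hx')))
      refine act_eq_of_bnb (hrep u) (hrepN u) (hrep u') (hrepN u') (b := b'⁻¹ * b) (b' := x * x'⁻¹)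
        (mul_mem (inv_mem hb') hb) hxx ?_
      have : b'⁻¹ * (b * rep u * x) * x'⁻¹ = rep u' := by rw [e]; group
      rw [← this]; group
    subst huu
    obtain ⟨h1, h2⟩ := bnu_unique (hrep u) hb hb' hx hx' e
    subst h1; subst h2; rfl
  · rintro ⟨g, hg⟩
    obtain ⟨b, hb, m, hm, u, huT, hu, b', hb', rfl⟩ := mem_cells (T := (T : Set (Equiv.Perm (Fin n)))) h1 hT hg
    have h1 := inv_mul_mem_H (hrepN ⟨u, huT⟩) hm (hrep ⟨u, huT⟩) hu
    obtain ⟨b'', hb'', x, hx, e⟩ := exists_bnu (hrep ⟨u, huT⟩) (hrepN ⟨u, huT⟩)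
      (b := (rep ⟨u, huT⟩)⁻¹ * m * b') (mul_mem (R.H_le_B h1) hb')
    refine ⟨(⟨b * b'', mul_mem hb hb''⟩, ⟨⟨u, huT⟩, ⟨x, hx⟩⟩), ?_⟩
    apply Subtype.ext
    change b * b'' * rep ⟨u, huT⟩ * x = b * m * b'
    have : b * b'' * rep ⟨u, huT⟩ * x = b * (b'' * rep ⟨u, huT⟩ * x) := by group
    rw [this, ← e]; group

/-- the order of `Um` of a reduced word -/
theorem card_Um_wd {q : ℕ} (hq : ∀ j, Nat.card (R.X (S.p j)) = q) (L : List (Fin l))
    (hL : ∀ k (hk : k < L.length), S.Pos (S.wd (L.take k) (S.p (L[k])))) :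
    Nat.card (R.Um (S.wd L)) = q ^ L.length := by
  induction L using List.reverseRecOn with
  | nil => rw [WSys.wd_nil, Um_one, Subgroup.card_bot, List.length_nil, pow_zero]
  | append_singleton L i ih =>
    have h1 := hL L.length (by simp)
    rw [List.take_left' rfl] at h1
    have h2 : (L ++ [i])[L.length]'(by simp) = i := by simp
    rw [h2] at h1
    have h3 := RGrp.card_Um_mul (R := R) (S.wd_mem L) h1
    have h4 : S.wd (L ++ [i]) = S.wd L * S.w i := by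
      rw [WSys.wd_append, WSys.wd_cons, WSys.wd_nil, mul_one]
    rw [h4, h3, ih ?_, List.length_append, List.length_singleton, pow_succ, hq]
    intro k hk
    have h5 := hL k (by rw [List.length_append]; omega)
    rw [List.take_append_of_le_length hk.le] at h5
    rwa [List.getElem_append_left hk] at h5

end Cfsg.Agent.BTs
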