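import Cfsg.Agent.BTs.F4Main

/-!
Primes dividing the orders of the stable parabolic subgroups (owner: helper12).
-/

set_option autoImplicit false
set_option maxRecDepth 100000

namespace Cfsg.Agent.BTs

open Cfsg.Lie Cfsg.Agent.Chev Cfsg.Agent.ChevGrp Cfsg.Agent.ChevGrp.DData Cfsg.Agent.ChevWeyl
  Cfsg.Agent.Tw3 Cfsg.Agent.Tw4 Cfsg.Agent.ChevGrp.RGrp

variable {K : Type*} [Field K] [Fintype K]

theorem dvd_card_B {r : ℕ} (hr : r.Prime) (h : r ∣ Nat.card (RF K).B) : r ∣ Nat.card K ∨ r ∣ Nat.card K - 1 := by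
  have hfin : Finite ↥(chevF4.group K) := inferInstance
  have hfact : Fact r.Prime := ⟨hr⟩
  rw [RGrp.card_B, hr.dvd_mul] at h
  rcases h with h | h
  · left
    obtain ⟨u, hu, hw⟩ := dF4.rp.wsys.exists_longest'
    have h1 : (RF K).U = (RF K).Um u := by
      unfold RGrp.U Um
      congr 1
      funext r
      exact propext ⟨fun hr => ⟨hr, hw r hr⟩, fun hr => hr.1⟩
    rw [h1, card_Um (q := Nat.card K) (fun j => card_X_F4 _) hu] at h
    exact hr.dvd_of_dvd_pow h
  · right
    obtain ⟨x, hx⟩ := exists_prime_orderOf_dvd_card' r h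
    have h1 : orderOf (x : ↥(chevF4.group K)) = r := by rw [Subgroup.orderOf_coe, hx]
    obtain ⟨χ, hχ⟩ := (AF K).H_char x.2
    have h2 : ∀ (k : ℕ) s t, (x : ↥(chevF4.group K)) ^ k * (AF K).x s t * ((x : ↥(chevF4.group K)) ^ k)⁻¹ =
        (AF K).x s (((χ s) ^ k : Kˣ) * t) := by
      intro k
      induction k with
      | zero => intro s t; simp
      | succ k ih =>
        intro s t
        have e : (x : ↥(chevF4.group K)) ^ (k + 1) * (AF K).x s t * ((x : ↥(chevF4.group K)) ^ (k + 1))⁻¹ =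
            (x : ↥(chevF4.group K)) * ((x : ↥(chevF4.group K)) ^ k * (AF K).x s t * ((x : ↥(chevF4.group K)) ^ k)⁻¹) *
              (x : ↥(chevF4.group K))⁻¹ := by
          rw [pow_succ']; group
        rw [e, ih, hχ]
        congr 1
        rw [pow_succ', Units.val_mul, mul_assoc]
    have h3 : (x : ↥(chevF4.group K)) ^ (Nat.card K - 1) = 1 := by
      apply (AF K).H_faith _ (pow_mem x.2 _)
      intro s t
      rw [h2]
      have h4 : (χ s) ^ (Nat.card K - 1) = 1 := by
        rw [← Nat.card_units]; exact pow_card_eq_one'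
      rw [h4, Units.val_one, one_mul]
    rw [← h1]
    exact orderOf_dvd_of_pow_eq_one h3

theorem dvd_par {r : ℕ} (hr : r.Prime)
    (h : r ∣ Nat.card (par (RF K) {i0, i3}) ∨ r ∣ Nat.card (par (RF K) {i1, i2})) :
    r ∣ Nat.card K * (Nat.card K ^ 4 - 1) := by
  set q := Nat.card K with hq
  have hq1 : 1 ≤ q := Nat.card_pos
  have e1 : q ^ 4 - 1 = (q - 1) * ((1 + q) * (1 + q ^ 2)) := by
    obtain ⟨k, hk⟩ : ∃ k, q = k + 1 := ⟨q - 1, by omega⟩
    rw [hk, Nat.add_sub_cancel]
    have : (k + 1) ^ 4 = k * ((1 + (k + 1)) * (1 + (k + 1) ^ 2)) + 1 := by ring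
    omega
  have hB : r ∣ Nat.card (RF K).B → r ∣ q * (q ^ 4 - 1) := by
    intro h
    rcases dvd_card_B hr h with h | h
    · exact h.mul_right _
    · rw [e1]
      exact (h.mul_right _).mul_left _
  have h1 : r ∣ 1 + q → r ∣ q * (q ^ 4 - 1) := fun h => by
    rw [e1]
    exact ((h.mul_right _).mul_left _).mul_left _
  have h2 : r ∣ 1 + q ^ 2 → r ∣ q * (q ^ 4 - 1) := fun h => by
    rw [e1]
    exact ((h.mul_left _).mul_left _).mul_left _
  rcases h with h | h
  · rw [card_par03, hr.dvd_mul] at h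
    rcases h with h | h
    · exact hB h
    · exact h1 (hr.dvd_of_dvd_pow h)
  · rw [card_par12, hr.dvd_mul, hr.dvd_mul] at h
    rcases h with h | h | h
    · exact hB h
    · exact h1 (hr.dvd_of_dvd_pow h)
    · exact h2 h

theorem prime_dvd [CharP K 2] (Z : Sg K) {a b : ↥(chevF4.group K)} (ha : orderOf a = 2) (hσ : Z.σ a = a)
    (hab : b * a = a * b) {r : ℕ} (hr : r.Prime) (h : r ∣ orderOf b) : r ∣ Nat.card K * (Nat.card K ^ 4 - 1) := by
  have hfin : Finite ↥(chevF4.group K) := inferInstance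
  have hfact : Fact (Nat.Prime 2) := ⟨Nat.prime_two⟩
  obtain ⟨P, U, hPU, hP, hC⟩ := exists_stable Z.σ (ParF (K := K)) (fun P U h => hPar_F4 P U h) (fun V hV hne => bt_F4 V hV hne) ha hσ
  have h1 : orderOf b ∣ Nat.card P := by
    rw [← Subgroup.orderOf_mk b (hC b hab)]
    exact orderOf_dvd_natCard _
  apply dvd_par hr
  rcases dvd_of_stable Z hPU hP with h2 | h2
  · exact Or.inl ((h.trans h1).trans h2)
  · exact Or.inr ((h.trans h1).trans h2)

end Cfsg.Agent.BTs
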